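import Mathlib
import Cfsg.Agent.Lib.Helper96.HallSymStmt

/-! Piece HCAU of S2536: a Hall `π`-subgroup of `Perm Ω` has an orbit of size at least `p` for
every prime `p ∈ π`, `p ≤ card Ω`. -/

set_option autoImplicit false

namespace Cfsg.Agent.Lib.Helper85.HSHCAU

open Equiv Cfsg.Agent.Lib.Helper96.HallSymStmt

theorem main : Cfsg.Agent.Lib.Helper96.HallSymStmt.HCAU' := by
  intro hSYL Ω _ _ π H hH p hp hpπ hpn
  obtain ⟨g, hgH, hcyc, hcard⟩ := hSYL Ω π H hH p hp hpπ hpn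
  obtain ⟨x, hx, hsame⟩ := hcyc
  refine ⟨x, ?_⟩
  have hsub : ((g.support : Finset Ω) : Set Ω) ⊆ Orb H x := by
    intro y hy
    have hy' : g y ≠ y := Equiv.Perm.mem_support.mp hy
    obtain ⟨k, hk⟩ := hsame hy'
    exact ⟨g ^ k, H.zpow_mem hgH k, hk⟩
  have h1 := Set.ncard_le_ncard hsub (Set.toFinite _)
  rw [Set.ncard_coe_finset, hcard] at h1
  exact h1

end Cfsg.Agent.Lib.Helper85.HSHCAU
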