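import Mathlib
import Cfsg.Agent.Lib.Helper96.HallSymStmt

/-! Piece J2 of S2536: a primitive permutation group containing a cycle of prime length
`p < n` has even order (Jordan). -/

set_option autoImplicit false

namespace Cfsg.Agent.Lib.Helper85.HSJ2

open Equiv Cfsg.Agent.Lib.Helper96.HallSymStmt MulAction

theorem main : Cfsg.Agent.Lib.Helper96.HallSymStmt.J2 := by
  intro Ω _ _ H g hprim hgH hcyc hpr hlt
  classical
  have hp2 := hpr.two_le
  obtain ⟨k, hk⟩ : ∃ k, Fintype.card Ω = g.support.card + k + 1 :=
    ⟨Fintype.card Ω - g.support.card - 1, by omega⟩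
  have hsc : Set.ncard ((g.support : Set Ω)ᶜ) = k + 1 := by
    apply Nat.add_left_cancel (n := (g.support : Set Ω).ncard)
    rw [Set.ncard_add_ncard_compl, Set.ncard_coe_finset, Nat.card_eq_fintype_card, hk]
    ring
  have hmp : IsMultiplyPreprimitive H Ω (k + 2) := by
    apply hprim.isMultiplyPreprimitive hsc
    · rw [Nat.card_eq_fintype_card, hk]; omega
    have := Equiv.Perm.isPretransitive_of_isCycle_mem hcyc hgH
    apply IsPreprimitive.of_prime_card
    convert hpr
    rw [Nat.card_eq_fintype_card, Fintype.card_subtype]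
    apply congr_arg
    ext x
    simp [SubMulAction.mem_ofFixingSubgroup_iff]
  have h2 : IsMultiplyPretransitive H Ω 2 := by
    haveI := hmp
    exact isMultiplyPretransitive_of_le (n := k + 2) (by omega)
      (by rw [Nat.card_eq_fintype_card, hk]; omega)
  rw [is_two_pretransitive_iff] at h2
  obtain ⟨x, y, hxy⟩ : ∃ x y : Ω, x ≠ y := by
    have h1 : 1 < Fintype.card Ω := by omega
    exact Fintype.exists_pair_of_one_lt_card h1
  obtain ⟨h, hx, hy⟩ := h2 hxy hxy.symm
  have hev : 2 ∣ orderOf h := by
    by_contra hodd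
    have hodd' : Odd (orderOf h) := Nat.odd_iff.mpr (by omega)
    have key : ∀ m : ℕ, (h ^ (2 * m + 1)) • x = y := by
      intro m
      induction m with
      | zero => simpa using hx
      | succ m ih =>
        have e : h ^ (2 * (m + 1) + 1) = h * (h * h ^ (2 * m + 1)) := by
          rw [← pow_succ', ← pow_succ']
          congr 1
        rw [e, mul_smul, mul_smul, ih, hy, hx]
    obtain ⟨m, hm⟩ := hodd'
    have h3 := key m
    rw [← hm, pow_orderOf_eq_one, one_smul] at h3
    exact hxy h3
  exact hev.trans (orderOf_dvd_natCard h)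

end Cfsg.Agent.Lib.Helper85.HSJ2
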