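import Mathlib
import Cfsg.Agent.Lib.Helper96.HallSymStmt

/-! Piece PRIM of S2536: a primitive Hall `π`-subgroup of `Perm Ω` with two primes `≤ n` in
`π` contains every prime `≤ n` in `π`. -/

set_option autoImplicit false

namespace Cfsg.Agent.Lib.Helper85.HSPRIM

open Equiv Cfsg.Agent.Lib.Helper96.HallSymStmt

theorem main : Cfsg.Agent.Lib.Helper96.HallSymStmt.PRIM' := by
  intro hSYL hJ2 Ω _ _ π H hH hprim hTwo hNot
  classical
  obtain ⟨r, s, hr, hs, hrs, hrπ, hsπ, hrn, hsn⟩ := hTwo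
  -- a prime `p ∈ π` with `p < n`
  obtain ⟨p, hp, hpπ, hpn⟩ : ∃ p : ℕ, p.Prime ∧ p ∈ π ∧ p < Fintype.card Ω := by
    rcases lt_or_gt_of_ne hrs with h | h
    · exact ⟨r, hr, hrπ, h.trans_le hsn⟩
    · exact ⟨s, hs, hsπ, h.trans_le hrn⟩
  obtain ⟨g, hgH, hcyc, hcard⟩ := hSYL Ω π H hH p hp hpπ hpn.le
  have h2 : 2 ∣ Nat.card ↥H := by
    apply hJ2 Ω H g hprim hgH hcyc
    · rw [hcard]; exact hp
    · rw [hcard]; exact hpn
  have h2π : (2 : ℕ) ∈ π := hH.1 2 Nat.prime_two h2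
  have h2n : 2 ≤ Fintype.card Ω := hp.two_le.trans hpn.le
  obtain ⟨g₂, hg₂H, -, hcard₂⟩ := hSYL Ω π H hH 2 Nat.prime_two h2π h2n
  have hswap : g₂.IsSwap := Equiv.Perm.card_support_eq_two.mp hcard₂
  have htop : H = ⊤ :=
    Equiv.Perm.subgroup_eq_top_of_isPreprimitive_of_isSwap_mem hprim g₂ hswap hg₂H
  obtain ⟨q, hq, hqn, hqπ⟩ := hNot
  apply hqπ
  apply hH.1 q hq
  rw [htop, Subgroup.card_top, Nat.card_perm, Nat.card_eq_fintype_card]
  exact Nat.dvd_factorial hq.pos hqn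

end Cfsg.Agent.Lib.Helper85.HSPRIM
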