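import Mathlib
import Cfsg.Agent.Lib.Helper94.OPStmt
import Cfsg.Agent.Lib.Helper94.EllPFIX
import Cfsg.Agent.Lib.Helper40.AltRank

/-!
# S5989 / PFIXA (second seat): an isometry `x` of the plus form with `(x - 1) V ≤ Fix x`
stabilising a nondegenerate subspace of odd dimension `m` has `dim (x - 1) V ≤ d - 1`, and
`m ≡ 1 (mod 4)` in case of equality.
-/

set_option autoImplicit false

namespace Cfsg.Agent.Lib.Helper85.OPPFIXA

open Module QuadraticMap
open Cfsg.Agent.Lib.Helper44.QSpace Cfsg.Agent.Lib.Helper44.NegPairs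
open Cfsg.Agent.Lib.Helper44.WittND Cfsg.Agent.Lib.Helper44.WittND2
open Cfsg.Agent.Lib.Helper94.OPStmt

universe u

section gen

variable {F : Type*} [Field F] {V : Type u} [AddCommGroup V] [Module F V] [FiniteDimensional F V]

/-- for `N` with `N ^ 2 = 0` and `1 + N` an isometry: `Q (N u) = 0` and `B (u, N u) = 0` -/
theorem sq_zero_facts (h2 : (2 : F) ≠ 0) (Q : QuadraticForm F V) (N : V →ₗ[F] V)
    (hN2 : ∀ v, N (N v) = 0) (hQ : ∀ v, Q (v + N v) = Q v) (u : V) :
    Q (N u) = 0 ∧ polar Q u (N u) = 0 := by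
  have e1 : Q (u + N u) = Q u + Q (N u) + polar Q u (N u) := QuadraticMap.map_add Q u (N u)
  have e2 : Q (u + (2 : F) • N u) = Q u + Q ((2 : F) • N u) + polar Q u ((2 : F) • N u) :=
    QuadraticMap.map_add Q u _
  have e3 : Q (u + (2 : F) • N u) = Q u := by
    have h := hQ (u + N u)
    have hNa : N (u + N u) = N u := by rw [map_add, hN2, add_zero]
    rw [hNa] at h
    have e : u + (2 : F) • N u = u + N u + N u := by rw [two_smul, add_assoc]
    rw [e, h, hQ u]
  rw [QuadraticMap.map_smul, polar_smul_right] at e2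
  rw [hQ u] at e1
  rw [e3] at e2
  have hb : (2 : F) * Q (N u) = 0 := by
    simp only [smul_eq_mul] at e2
    linear_combination 2 * e1 - e2
  have hb' : Q (N u) = 0 := (mul_eq_zero.mp hb).resolve_left h2
  refine ⟨hb', ?_⟩
  rw [hb'] at e1
  linear_combination -e1

/-- the rank of `N` on a nondegenerate invariant subspace is even -/
theorem even_rank_sq_zero (h2 : (2 : F) ≠ 0) (Q : QuadraticForm F V) (N : V →ₗ[F] V)
    (hN2 : ∀ v, N (N v) = 0) (hQ : ∀ v, Q (v + N v) = Q v)
    (W : Submodule F V) (hW : NDsub Q W) (hNW : ∀ w ∈ W, N w ∈ W) :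
    Even (finrank F ↥(W.map N)) := by
  classical
  have halt : ∀ u, polar Q (N u) u = 0 := by
    intro u
    rw [polar_comm]
    exact (sq_zero_facts h2 Q N hN2 hQ u).2
  have hskew : ∀ u k, polar Q (N u) k = -polar Q (N k) u := by
    intro u k
    have h := halt (u + k)
    rw [map_add, polar_add_left, polar_add_right, polar_add_right, halt u, halt k] at h
    linear_combination h
  obtain ⟨f, hf⟩ : ∃ f : ↥W →ₗ[F] V, f = N ∘ₗ W.subtype := ⟨_, rfl⟩
  have hfa : ∀ w : ↥W, f w = N (w : V) := by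
    intro w; rw [hf]; rfl
  obtain ⟨C0, hC0⟩ := Submodule.exists_isCompl (LinearMap.ker f)
  have hrange : LinearMap.range f = W.map N := by
    rw [hf, LinearMap.range_comp, Submodule.range_subtype]
  have hdim : finrank F ↥C0 = finrank F ↥(W.map N) := by
    have h1 := Submodule.finrank_add_eq_of_isCompl hC0
    have h3 := LinearMap.finrank_range_add_finrank_ker f
    rw [hrange] at h3
    omega
  rw [← hdim]
  obtain ⟨B, hB⟩ : ∃ B : LinearMap.BilinForm F ↥C0,
      ∀ x y : ↥C0, B x y = polar Q (N ((x : ↥W) : V)) ((y : ↥W) : V) :=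
    ⟨(((LinearMap.BilinForm.compLeft (polarBilin Q) N).restrict W).restrict C0), fun x y => rfl⟩
  apply Cfsg.Agent.Lib.Helper40.AltRank.even_finrank_of_alt B
  · intro x
    rw [hB]
    exact halt _
  · intro u hu
    have h1 : ∀ w ∈ W, polar Q (N ((u : ↥W) : V)) w = 0 := by
      intro w hw
      have hw' : (⟨w, hw⟩ : ↥W) ∈ LinearMap.ker f ⊔ C0 := by
        rw [hC0.sup_eq_top]; exact Submodule.mem_top
      obtain ⟨k, hk, c, hc, hkc⟩ := Submodule.mem_sup.mp hw'
      have hk' : N (k : V) = 0 := by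
        have := LinearMap.mem_ker.mp hk
        rwa [hfa] at this
      have hwe : w = (k : V) + (c : V) := by
        have := congrArg (Subtype.val) hkc
        simpa using this.symm
      have h3 := hu ⟨c, hc⟩
      rw [hB] at h3
      rw [hwe, polar_add_right, hskew _ (k : V), hk']
      simp only [polar_zero_left, neg_zero, zero_add]
      exact h3
    have h4 : N ((u : ↥W) : V) = 0 := hW _ (hNW _ (u : ↥W).2) h1
    have h5 : (u : ↥W) ∈ LinearMap.ker f ⊓ C0 :=
      Submodule.mem_inf.mpr ⟨LinearMap.mem_ker.mpr (by rw [hfa]; exact h4), u.2⟩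
    rw [hC0.inf_eq_bot, Submodule.mem_bot] at h5
    exact Subtype.ext h5

theorem core (h2 : (2 : F) ≠ 0) (Q : QuadraticForm F V) (hS : Sep Q) (A : V →ₗ[F] V)
    (hA : ∀ v, Q (A v) = Q v)
    (hNN : LinearMap.range (A - LinearMap.id) ≤ LinearMap.ker (A - LinearMap.id))
    (W : Submodule F V) (hW : NDsub Q W) (hAW : ∀ w ∈ W, A w ∈ W)
    (m : ℕ) (hm : finrank F W = m) (hmodd : Odd m) (d : ℕ) (hV : finrank F V = 2 * d) :
    finrank F ↥(LinearMap.range (A - LinearMap.id)) ≤ d - 1 ∧
      (finrank F ↥(LinearMap.range (A - LinearMap.id)) = d - 1 → m % 4 = 1) := by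
  obtain ⟨N, hNdef⟩ : ∃ N : V →ₗ[F] V, N = A - LinearMap.id := ⟨_, rfl⟩
  rw [← hNdef] at hNN ⊢
  have hN : ∀ v, N v = A v - v := by
    intro v
    rw [hNdef, LinearMap.sub_apply, LinearMap.id_apply]
  have hN2 : ∀ v, N (N v) = 0 := by
    intro v
    exact LinearMap.mem_ker.mp (hNN (LinearMap.mem_range_self N v))
  have hQN : ∀ v, Q (v + N v) = Q v := by
    intro v
    rw [hN, add_sub_cancel, hA]
  obtain ⟨W', hW'def⟩ : ∃ W', W' = LinearMap.BilinForm.orthogonal (polarBilin Q) W := ⟨_, rfl⟩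
  have hW'mem : ∀ v, v ∈ W' ↔ ∀ w ∈ W, polar Q w v = 0 := by
    intro v
    rw [hW'def]
    exact Iff.rfl
  have hinf : W ⊓ W' = ⊥ := by
    rw [eq_bot_iff]
    rintro x ⟨hx1, hx2⟩
    rw [Submodule.mem_bot]
    apply hW x hx1
    intro y hy
    rw [polar_comm]
    exact (hW'mem x).mp hx2 y hy
  have hW'nd : NDsub Q W' := by
    rw [hW'def]
    apply ndsub_orth hS
    rw [← hW'def]
    exact hinf
  have hfW' : finrank F W' = finrank F V - finrank F W := by
    rw [hW'def, LinearMap.BilinForm.finrank_orthogonal (nondegenerate_of_sep hS)]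
  have hWle : finrank F W ≤ finrank F V := Submodule.finrank_le W
  have hsup : W ⊔ W' = ⊤ := by
    apply Submodule.eq_top_of_finrank_eq
    have h3 := Submodule.finrank_sup_add_finrank_inf_eq W W'
    rw [hinf, finrank_bot] at h3
    omega
  have hpol : ∀ u v, polar Q (A u) (A v) = polar Q u v := by
    intro u v
    unfold polar
    rw [← map_add, hA, hA, hA]
  have hAinj : Function.Injective A := by
    rw [injective_iff_map_eq_zero]
    intro v hv
    apply hS
    intro y
    rw [← hpol, hv]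
    simp [polar]
  have hsurj : ∀ w ∈ W, ∃ w₂ ∈ W, A w₂ = w := by
    have hinjr : Function.Injective (A.restrict hAW) := by
      intro a b hab
      apply Subtype.ext
      apply hAinj
      have := congrArg (Subtype.val) hab
      simpa [LinearMap.restrict_apply] using this
    have hsur := LinearMap.injective_iff_surjective.mp hinjr
    intro w hw
    obtain ⟨w₂, hw₂⟩ := hsur ⟨w, hw⟩
    refine ⟨w₂.1, w₂.2, ?_⟩
    have := congrArg (Subtype.val) hw₂
    simpa [LinearMap.restrict_apply] using this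
  have hAW' : ∀ v ∈ W', A v ∈ W' := by
    intro v hv
    rw [hW'mem]
    intro w hw
    obtain ⟨w₂, hw₂, rfl⟩ := hsurj w hw
    rw [hpol]
    exact (hW'mem v).mp hv w₂ hw₂
  have hNW : ∀ w ∈ W, N w ∈ W := by
    intro w hw
    rw [hN]
    exact W.sub_mem (hAW w hw) hw
  have hNW' : ∀ w ∈ W', N w ∈ W' := by
    intro w hw
    rw [hN]
    exact W'.sub_mem (hAW' w hw) hw
  have hsing : ∀ (U : Submodule F V), ∀ t ∈ U.map N, Q t = 0 := by
    intro U t ht
    obtain ⟨w, -, rfl⟩ := Submodule.mem_map.mp ht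
    exact (sq_zero_facts h2 Q N hN2 hQN w).1
  have hT₁W : W.map N ≤ W := by
    intro t ht
    obtain ⟨w, hw, rfl⟩ := Submodule.mem_map.mp ht
    exact hNW w hw
  have hT₂W' : W'.map N ≤ W' := by
    intro t ht
    obtain ⟨w, hw, rfl⟩ := Submodule.mem_map.mp ht
    exact hNW' w hw
  have hle : LinearMap.range N ≤ W.map N ⊔ W'.map N := by
    intro t ht
    obtain ⟨v, rfl⟩ := LinearMap.mem_range.mp ht
    have hv : v ∈ W ⊔ W' := by rw [hsup]; exact Submodule.mem_top
    obtain ⟨w, hw, w', hw', rfl⟩ := Submodule.mem_sup.mp hv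
    rw [map_add]
    exact Submodule.add_mem_sup (Submodule.mem_map_of_mem hw) (Submodule.mem_map_of_mem hw')
  have hd1 := Submodule.finrank_mono hle
  have hd2 := Submodule.finrank_add_le_finrank_add_finrank (W.map N) (W'.map N)
  have hd3 := Cfsg.Agent.Lib.Helper94.EllPFIX.ts_half Q hW hT₁W (hsing W)
  have hd4 := Cfsg.Agent.Lib.Helper94.EllPFIX.ts_half Q hW'nd hT₂W' (hsing W')
  have hev := even_rank_sq_zero h2 Q N hN2 hQN W hW hNW
  obtain ⟨j, hj⟩ := hev
  obtain ⟨k, hk⟩ := hmodd
  constructor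
  · omega
  · intro h
    omega

end gen

theorem main : PFixA.{u} := by
  intro F _ _ hodd d m hd hmodd x hx hNN W hWm hWnd hStab
  have h2 : (2 : F) ≠ 0 := Cfsg.Agent.Lib.Helper10.HypINVOL.two_ne_zero_of_odd hodd
  have hS : Sep (plusQ d F) := sep_plusQ d
  have hA : ∀ v, plusQ d F (Matrix.toLin' (x : Matrix (P d) (P d) F) v) = plusQ d F v := by
    intro v
    rw [Matrix.toLin'_apply]
    exact hx v v
  have hWnd' : NDsub (plusQ d F) W := by
    intro y hy hyz
    by_contra hy0
    obtain ⟨-, z, hz, hz0⟩ := hWnd y hy hy0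
    exact hz0 (hyz z hz)
  have hAW : ∀ w ∈ W, Matrix.toLin' (x : Matrix (P d) (P d) F) w ∈ W := by
    intro w hw
    exact hStab (Submodule.mem_map_of_mem hw)
  have hV : finrank F (P d → F) = 2 * d := by
    rw [Module.finrank_fintype_fun_eq_card, Fintype.card_sum, Fintype.card_fin]
    omega
  exact core h2 (plusQ d F) hS (Matrix.toLin' (x : Matrix (P d) (P d) F)) hA hNN W hWnd' hAW m hWm
    hmodd d hV

end Cfsg.Agent.Lib.Helper85.OPPFIXA
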