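import Mathlib
import Cfsg.Agent.Lib.Helper94.OPStmt
import Cfsg.Agent.Lib.Helper94.EllPFIX
import Cfsg.Agent.Lib.Helper40.AltRank

/-!
# Rank facts for an isometry `A` with `Q = 0` on `(A - 1) V` (all characteristics)

For an isometry `A` of a nondegenerate quadratic space with `Q ((A - 1) v) = 0` for all `v`, and an
invariant nondegenerate subspace `W` with orthogonal complement `W'`: `T = (A - 1) W ≤ W` and
`T' = (A - 1) W' ≤ W'` are totally singular, of EVEN dimension (`(u, v) ↦ β (u, (A - 1) v)` is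
alternating), `2 dim T ≤ dim W`, `2 dim T' ≤ dim W'`, and `dim (A - 1) V ≤ dim T + dim T'`.
`plus_facts` is the matrix version for the plus form of dimension `2 d`.
-/

set_option autoImplicit false

namespace Cfsg.Agent.Lib.Helper85.SqRank

open Module QuadraticMap
open Cfsg.Agent.Lib.Helper44.QSpace Cfsg.Agent.Lib.Helper44.NegPairs
open Cfsg.Agent.Lib.Helper44.WittND Cfsg.Agent.Lib.Helper44.WittND2
open Cfsg.Agent.Lib.Helper94.OPStmt

universe u

section gen

variable {F : Type*} [Field F] {V : Type u} [AddCommGroup V] [Module F V] [FiniteDimensional F V]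

/-- if `β (N u, u) = 0` for all `u`, the rank of `N` on a nondegenerate invariant subspace is
even -/
theorem even_rank (Q : QuadraticForm F V) (N : V →ₗ[F] V)
    (halt : ∀ u, polar Q (N u) u = 0)
    (W : Submodule F V) (hW : NDsub Q W) (hNW : ∀ w ∈ W, N w ∈ W) :
    Even (finrank F ↥(W.map N)) := by
  classical
  have hskew : ∀ u k, polar Q (N u) k = -polar Q (N k) u := by
    intro u k
    have h := halt (u + k)
    rw [map_add, polar_add_left, polar_add_right, polar_add_right, halt u, halt k] at h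
    linear_combination h
  obtain ⟨f, hf⟩ : ∃ f : ↥W →ₗ[F] V, f = N ∘ₗ W.subtype := ⟨_, rfl⟩
  have hfa : ∀ w : ↥W, f w = N (w : V) := by
    intro w; rw [hf]; rfl
  obtain ⟨C0, hC0⟩ := Submodule.exists_isCompl (LinearMap.ker f)
  have hrange : LinearMap.range f = W.map N := by
    rw [hf, LinearMap.range_comp, Submodule.range_subtype]
  have hdim : finrank F ↥C0 = finrank F ↥(W.map N) := by
    have h1 := Submodule.finrank_add_eq_of_isCompl hC0
    have h3 := LinearMap.finrank_range_add_finrank_ker f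
    rw [hrange] at h3
    omega
  rw [← hdim]
  obtain ⟨B, hB⟩ : ∃ B : LinearMap.BilinForm F ↥C0,
      ∀ x y : ↥C0, B x y = polar Q (N ((x : ↥W) : V)) ((y : ↥W) : V) :=
    ⟨(((LinearMap.BilinForm.compLeft (polarBilin Q) N).restrict W).restrict C0), fun x y => rfl⟩
  apply Cfsg.Agent.Lib.Helper40.AltRank.even_finrank_of_alt B
  · intro x
    rw [hB]
    exact halt _
  · intro u hu
    have h1 : ∀ w ∈ W, polar Q (N ((u : ↥W) : V)) w = 0 := by
      intro w hw
      have hw' : (⟨w, hw⟩ : ↥W) ∈ LinearMap.ker f ⊔ C0 := by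
        rw [hC0.sup_eq_top]; exact Submodule.mem_top
      obtain ⟨k, hk, c, hc, hkc⟩ := Submodule.mem_sup.mp hw'
      have hk' : N (k : V) = 0 := by
        have := LinearMap.mem_ker.mp hk
        rwa [hfa] at this
      have hwe : w = (k : V) + (c : V) := by
        have := congrArg (Subtype.val) hkc
        simpa using this.symm
      have h3 := hu ⟨c, hc⟩
      rw [hB] at h3
      rw [hwe, polar_add_right, hskew _ (k : V), hk']
      simp only [polar_zero_left, neg_zero, zero_add]
      exact h3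
    have h4 : N ((u : ↥W) : V) = 0 := hW _ (hNW _ (u : ↥W).2) h1
    have h5 : (u : ↥W) ∈ LinearMap.ker f ⊓ C0 :=
      Submodule.mem_inf.mpr ⟨LinearMap.mem_ker.mpr (by rw [hfa]; exact h4), u.2⟩
    rw [hC0.inf_eq_bot, Submodule.mem_bot] at h5
    exact Subtype.ext h5

/-- the rank facts (see the file header) -/
theorem split_facts (Q : QuadraticForm F V) (hS : Sep Q) (A : V →ₗ[F] V)
    (hA : ∀ v, Q (A v) = Q v)
    (hQ0 : ∀ v, Q ((A - LinearMap.id : V →ₗ[F] V) v) = 0)
    (W : Submodule F V) (hW : NDsub Q W) (hAW : ∀ w ∈ W, A w ∈ W) :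
    ∃ W' T T' : Submodule F V, NDsub Q W' ∧ (∀ u ∈ W', ∀ v ∈ W, polar Q u v = 0) ∧
      W' ⊔ W = ⊤ ∧ finrank F W' + finrank F W = finrank F V ∧ (∀ w ∈ W', A w ∈ W') ∧
      T ≤ W ∧ T' ≤ W' ∧ (∀ t ∈ T, Q t = 0) ∧ (∀ t ∈ T', Q t = 0) ∧
      Even (finrank F T) ∧ Even (finrank F T') ∧
      2 * finrank F T ≤ finrank F W ∧ 2 * finrank F T' ≤ finrank F W' ∧
      finrank F ↥(LinearMap.range (A - LinearMap.id)) ≤ finrank F T + finrank F T' := by
  obtain ⟨N, hNdef⟩ : ∃ N : V →ₗ[F] V, N = A - LinearMap.id := ⟨_, rfl⟩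
  rw [← hNdef] at hQ0 ⊢
  have hN : ∀ v, N v = A v - v := by
    intro v
    rw [hNdef, LinearMap.sub_apply, LinearMap.id_apply]
  have halt : ∀ u, polar Q (N u) u = 0 := by
    intro u
    have e1 : Q (u + N u) = Q u + Q (N u) + polar Q u (N u) := QuadraticMap.map_add Q u (N u)
    have e2 : Q (u + N u) = Q u := by rw [hN, add_sub_cancel, hA]
    rw [e2, hQ0] at e1
    rw [polar_comm]
    linear_combination -e1
  obtain ⟨W', hW'def⟩ : ∃ W', W' = LinearMap.BilinForm.orthogonal (polarBilin Q) W := ⟨_, rfl⟩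
  have hW'mem : ∀ v, v ∈ W' ↔ ∀ w ∈ W, polar Q w v = 0 := by
    intro v
    rw [hW'def]
    exact Iff.rfl
  have hinf : W ⊓ W' = ⊥ := by
    rw [eq_bot_iff]
    rintro x ⟨hx1, hx2⟩
    rw [Submodule.mem_bot]
    apply hW x hx1
    intro y hy
    rw [polar_comm]
    exact (hW'mem x).mp hx2 y hy
  have hW'nd : NDsub Q W' := by
    rw [hW'def]
    apply ndsub_orth hS
    rw [← hW'def]
    exact hinf
  have hfW' : finrank F W' = finrank F V - finrank F W := by
    rw [hW'def, LinearMap.BilinForm.finrank_orthogonal (nondegenerate_of_sep hS)]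
  have hWle : finrank F W ≤ finrank F V := Submodule.finrank_le W
  have hsup : W ⊔ W' = ⊤ := by
    apply Submodule.eq_top_of_finrank_eq
    have h3 := Submodule.finrank_sup_add_finrank_inf_eq W W'
    rw [hinf, finrank_bot] at h3
    omega
  have hpol : ∀ u v, polar Q (A u) (A v) = polar Q u v := by
    intro u v
    unfold polar
    rw [← map_add, hA, hA, hA]
  have hAinj : Function.Injective A := by
    rw [injective_iff_map_eq_zero]
    intro v hv
    apply hS
    intro y
    rw [← hpol, hv]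
    simp [polar]
  have hsurj : ∀ w ∈ W, ∃ w₂ ∈ W, A w₂ = w := by
    have hinjr : Function.Injective (A.restrict hAW) := by
      intro a b hab
      apply Subtype.ext
      apply hAinj
      have := congrArg (Subtype.val) hab
      simpa [LinearMap.restrict_apply] using this
    have hsur := LinearMap.injective_iff_surjective.mp hinjr
    intro w hw
    obtain ⟨w₂, hw₂⟩ := hsur ⟨w, hw⟩
    refine ⟨w₂.1, w₂.2, ?_⟩
    have := congrArg (Subtype.val) hw₂
    simpa [LinearMap.restrict_apply] using this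
  have hAW' : ∀ v ∈ W', A v ∈ W' := by
    intro v hv
    rw [hW'mem]
    intro w hw
    obtain ⟨w₂, hw₂, rfl⟩ := hsurj w hw
    rw [hpol]
    exact (hW'mem v).mp hv w₂ hw₂
  have hNW : ∀ w ∈ W, N w ∈ W := by
    intro w hw
    rw [hN]
    exact W.sub_mem (hAW w hw) hw
  have hNW' : ∀ w ∈ W', N w ∈ W' := by
    intro w hw
    rw [hN]
    exact W'.sub_mem (hAW' w hw) hw
  have hsing : ∀ (U : Submodule F V), ∀ t ∈ U.map N, Q t = 0 := by
    intro U t ht
    obtain ⟨w, -, rfl⟩ := Submodule.mem_map.mp ht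
    exact hQ0 w
  have hT₁W : W.map N ≤ W := by
    intro t ht
    obtain ⟨w, hw, rfl⟩ := Submodule.mem_map.mp ht
    exact hNW w hw
  have hT₂W' : W'.map N ≤ W' := by
    intro t ht
    obtain ⟨w, hw, rfl⟩ := Submodule.mem_map.mp ht
    exact hNW' w hw
  have hle : LinearMap.range N ≤ W.map N ⊔ W'.map N := by
    intro t ht
    obtain ⟨v, rfl⟩ := LinearMap.mem_range.mp ht
    have hv : v ∈ W ⊔ W' := by rw [hsup]; exact Submodule.mem_top
    obtain ⟨w, hw, w', hw', rfl⟩ := Submodule.mem_sup.mp hv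
    rw [map_add]
    exact Submodule.add_mem_sup (Submodule.mem_map_of_mem hw) (Submodule.mem_map_of_mem hw')
  have hd1 := Submodule.finrank_mono hle
  have hd2 := Submodule.finrank_add_le_finrank_add_finrank (W.map N) (W'.map N)
  have hd3 := Cfsg.Agent.Lib.Helper94.EllPFIX.ts_half Q hW hT₁W (hsing W)
  have hd4 := Cfsg.Agent.Lib.Helper94.EllPFIX.ts_half Q hW'nd hT₂W' (hsing W')
  refine ⟨W', W.map N, W'.map N, hW'nd, ?_, ?_, ?_, hAW', hT₁W, hT₂W', hsing W, hsing W',
    even_rank Q N halt W hW hNW, even_rank Q N halt W' hW'nd hNW', hd3, hd4, ?_⟩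
  · intro u hu v hv
    rw [polar_comm]
    exact (hW'mem u).mp hu v hv
  · rw [sup_comm]; exact hsup
  · omega
  · omega

end gen

/-- matrix version for the plus form: an isometry `x` with `Q = 0` on `(x - 1) V` and an invariant
nondegenerate `W`: `dim (x - 1) V ≤ a + b` with `a`, `b` EVEN, `2 a ≤ dim W`,
`2 b ≤ 2 d - dim W` (all characteristics). -/
theorem plus_facts {F : Type u} [Field F] [Fintype F] (d : ℕ)
    (x : Matrix.GeneralLinearGroup (P d) F)
    (hx : x ∈ Cfsg.isometryGroup F (Cfsg.quadFormPlus d F))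
    (hQ0 : ∀ v, Cfsg.quadFormPlus d F (NP (x : Matrix (P d) (P d) F) v) = 0)
    (W : Submodule F (P d → F)) (hWnd : NDegP d F W)
    (hStab : StabP (x : Matrix (P d) (P d) F) W) :
    ∃ a b : ℕ, Even a ∧ Even b ∧ 2 * a ≤ finrank F ↥W ∧ 2 * b + finrank F ↥W ≤ 2 * d ∧
      finrank F ↥(LinearMap.range (NP (x : Matrix (P d) (P d) F))) ≤ a + b := by
  have hS : Sep (plusQ d F) := sep_plusQ d
  have hA : ∀ v, plusQ d F (Matrix.toLin' (x : Matrix (P d) (P d) F) v) = plusQ d F v := by
    intro v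
    rw [Matrix.toLin'_apply]
    exact hx v v
  have hWnd' : NDsub (plusQ d F) W := by
    intro y hy hyz
    by_contra hy0
    obtain ⟨-, z, hz, hz0⟩ := hWnd y hy hy0
    exact hz0 (hyz z hz)
  have hAW : ∀ w ∈ W, Matrix.toLin' (x : Matrix (P d) (P d) F) w ∈ W := by
    intro w hw
    exact hStab (Submodule.mem_map_of_mem hw)
  have hV : finrank F (P d → F) = 2 * d := by
    rw [Module.finrank_fintype_fun_eq_card, Fintype.card_sum, Fintype.card_fin]
    omega
  obtain ⟨W', T, T', -, -, -, hdim, -, -, -, -, -, hTe, hT'e, h1, h2, h3⟩ :=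
    split_facts (plusQ d F) hS (Matrix.toLin' (x : Matrix (P d) (P d) F)) hA hQ0 W hWnd' hAW
  exact ⟨finrank F ↥T, finrank F ↥T', hTe, hT'e, h1,
    (Nat.add_le_add_right h2 _).trans_eq (hdim.trans hV), h3⟩

end Cfsg.Agent.Lib.Helper85.SqRank
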