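import Mathlib
import Cfsg.Agent.Lib.Helper44.TPStmt
import Cfsg.Agent.Lib.Helper43.HypBFCore
import Cfsg.Agent.Lib.Helper53.TPINVDIM

set_option autoImplicit false

/-! S5973 piece BFE: block finding, `i` even, for the plus form and ALL `q` (characteristic-free
version of `Helper43.HypBFE.bfe`: instead of a non-singular vector killed by `P` we find a vector
`v` killed by `P` with `polar v (φ v) ≠ 0`). -/

namespace Cfsg.Agent.Lib.Helper85.TPBFE

open Module QuadraticMap Polynomial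
open Cfsg.Agent.Lib.Helper44.QSpace Cfsg.Agent.Lib.Helper44.OTyp2
open Cfsg.Agent.Lib.Helper40.RecipPoly Cfsg.Agent.Lib.Helper44.NegPairs
open Cfsg.Agent.Lib.Helper43.HypBFCore

universe u

section abstract
variable {F : Type*} [Field F] [Fintype F] {V : Type*} [AddCommGroup V] [Module F V]
  [FiniteDimensional F V]

/-- a vector `v ∈ Y` killed by `P` with `polar v c ≠ 0` for some `c` in its cyclic space gives a
nondegenerate invariant block of dimension `i`. -/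
theorem block_of (r : ℕ) [Fact r.Prime] (i : ℕ) (hipos : 0 < i)
    (Q : QuadraticForm F V) (φ φ' : Module.End F V) (h1 : φ * φ' = 1)
    (hφr : φ ^ r = 1) (hφ : ∀ v, Q (φ v) = Q v)
    (hInv : ∀ R : Submodule F V, (∀ v ∈ R, φ v ∈ R) → (∀ v ∈ R, φ v = v → v = 0) →
      i ∣ finrank F R)
    (Y : Submodule F V) (hY : ∀ y ∈ Y, φ y ∈ Y) (hYfix : ∀ y ∈ Y, φ y = y → y = 0)
    (P : F[X]) (hPm : P.Monic) (hPdeg : P.natDegree = i)
    (v : V) (hvY : v ∈ Y) (hPv : aeval φ P v = 0) (c : V) (hc : c ∈ cyc φ P.natDegree v)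
    (hne : polar Q v c ≠ 0) :
    ∃ B : Submodule F V, B ≤ Y ∧ (∀ v ∈ B, φ v ∈ B) ∧
      (∀ b ∈ B, (∀ z ∈ B, polar Q b z = 0) → b = 0) ∧ finrank F B = i := by
  have hr : r.Prime := Fact.out
  have hφ'pow : φ' = φ ^ (r - 1) := by
    have h3 : φ ^ r = φ ^ (r - 1) * φ := by
      rw [← pow_succ, Nat.sub_add_cancel hr.pos]
    calc φ' = φ ^ r * φ' := by rw [hφr, one_mul]
      _ = φ ^ (r - 1) * (φ * φ') := by rw [h3, mul_assoc]
      _ = φ ^ (r - 1) := by rw [h1, mul_one]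
  obtain ⟨B, hB⟩ : ∃ B, B = cyc φ P.natDegree v := ⟨_, rfl⟩
  have hBY : B ≤ Y := hB ▸ cyc_le φ Y hY _ v hvY
  have hBinv : ∀ w ∈ B, φ w ∈ B := hB ▸ cyc_inv φ P hPm v hPv
  have hBinv' : ∀ w ∈ B, φ' w ∈ B := by
    intro w hw
    rw [hφ'pow]
    exact pow_mem φ B hBinv _ w hw
  have hBle : finrank F B ≤ i := by
    rw [hB, ← hPdeg]
    exact finrank_cyc_le φ _ v
  have hvB : v ∈ B := by
    rw [hB]
    exact mem_cyc_self φ _ (hPdeg ▸ hipos) v
  have hcB : c ∈ B := hB ▸ hc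
  have hBfix : ∀ w ∈ B, φ w = w → w = 0 := fun w hw => hYfix w (hBY hw)
  have hv0 : v ≠ 0 := by
    rintro rfl
    apply hne
    simp [polar]
  refine ⟨B, hBY, hBinv, ?_, ?_⟩
  · exact lker_eq_bot Q i φ φ' h1 hφ hInv B B hBinv hBinv' hBfix hBle v c hvB hcB hne
  · have hdvd := hInv B hBinv hBfix
    have hpos : 0 < finrank F B := by
      rcases Nat.eq_zero_or_pos (finrank F B) with h | h
      · exfalso
        have hbot : B = ⊥ := Submodule.finrank_eq_zero.mp h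
        rw [hbot] at hvB
        exact hv0 ((Submodule.mem_bot F).mp hvB)
      · exact h
    have := Nat.le_of_dvd hpos hdvd
    omega

/-- `φ + φ⁻¹` has no kernel on a subspace without fixed vectors (`φ` of odd prime order). -/
theorem sum_inj (r : ℕ) [Fact r.Prime] (hr2 : r ≠ 2) (φ φ' : Module.End F V) (h1 : φ * φ' = 1)
    (hφr : φ ^ r = 1) (z : V) (hfix : φ z = z → z = 0) (hz : φ z + φ' z = 0) : z = 0 := by
  have hr : r.Prime := Fact.out
  have e1 : φ (φ z) = -z := by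
    have h3 : φ (φ z + φ' z) = 0 := by rw [hz, map_zero]
    rw [map_add, ← Module.End.mul_apply φ φ', h1, Module.End.one_apply] at h3
    exact eq_neg_of_add_eq_zero_left h3
  have e4 : (φ ^ 4) z = z := by
    have h4 : (φ ^ 4 : Module.End F V) = φ * (φ * (φ * φ)) := by
      rw [pow_succ, pow_succ, pow_succ, pow_one]
      simp only [mul_assoc]
    rw [h4, Module.End.mul_apply, Module.End.mul_apply, Module.End.mul_apply, e1, map_neg,
      map_neg, e1, neg_neg]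
  have er : (φ ^ r) z = z := by rw [hφr, Module.End.one_apply]
  have p4 : Function.IsPeriodicPt (⇑φ) 4 z := by
    show (⇑φ)^[4] z = z
    rw [← Module.End.pow_apply]
    exact e4
  have pr : Function.IsPeriodicPt (⇑φ) r z := by
    show (⇑φ)^[r] z = z
    rw [← Module.End.pow_apply]
    exact er
  have hc2 : Nat.Coprime 2 r := (Nat.coprime_primes Nat.prime_two hr).mpr (Ne.symm hr2)
  have hc4 : Nat.gcd 4 r = 1 := Nat.Coprime.pow_left 2 hc2
  have p1 := p4.gcd pr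
  rw [hc4] at p1
  exact hfix p1

theorem bfe' {p : ℕ} [Fact p.Prime] [CharP F p] (r : ℕ) [Fact r.Prime]
    (hr2 : r ≠ 2) (hrp : r ≠ p) (hev : Even (orderOf ((Fintype.card F : ℕ) : ZMod r)))
    (Q : QuadraticForm F V) (φ φ' : Module.End F V) (h1 : φ * φ' = 1) (h2 : φ' * φ = 1)
    (hφr : φ ^ r = 1) (hφ : ∀ v, Q (φ v) = Q v)
    (hInv : ∀ R : Submodule F V, (∀ v ∈ R, φ v ∈ R) → (∀ v ∈ R, φ v = v → v = 0) →
      orderOf ((Fintype.card F : ℕ) : ZMod r) ∣ finrank F R)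
    (Y : Submodule F V) (hY : ∀ y ∈ Y, φ y ∈ Y) (hYfix : ∀ y ∈ Y, φ y = y → y = 0)
    (hYnd : ∀ u ∈ Y, u ≠ 0 → ∃ y ∈ Y, polar Q u y ≠ 0) (hYne : Y ≠ ⊥) :
    ∃ B : Submodule F V, B ≤ Y ∧ (∀ v ∈ B, φ v ∈ B) ∧
      (∀ b ∈ B, (∀ z ∈ B, polar Q b z = 0) → b = 0) ∧
      finrank F B = orderOf ((Fintype.card F : ℕ) : ZMod r) := by
  have hr : r.Prime := Fact.out
  have hr0 : (r : F) ≠ 0 := by
    rw [Ne, CharP.cast_eq_zero_iff F p]
    intro h
    exact hrp ((Nat.prime_dvd_prime_iff_eq Fact.out hr).mp h).symm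
  obtain ⟨P, hPirr, hPm, hPdvd, hP1, hPdeg, u, huY, hu0, hPu⟩ :=
    exists_P (p := p) r hrp φ hφr Y hY hYfix hYne
  obtain ⟨i, hi⟩ : ∃ i, i = orderOf ((Fintype.card F : ℕ) : ZMod r) := ⟨_, rfl⟩
  rw [← hi] at hPdeg hInv hev ⊢
  have hipos : 0 < i := hPdeg ▸ hPirr.natDegree_pos
  obtain ⟨hP0, hrev1, -, -, -, -, -, -, -, -, hself, -⟩ :=
    recip_facts (p := p) r hr2 P hPirr hPm hPdvd hP1
  rw [← hi] at hself
  have hrs := hself hev hipos
  rw [hrs] at hrev1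
  obtain ⟨y, hyY, hy⟩ := hYnd u huY hu0
  obtain ⟨w, hwY, hPw, hpol⟩ := split_polar Q φ φ' h1 h2 hφ r hr0 hφr Y hY P P _ hrev1 hPdvd
    u hPu y hyY
  rw [hpol] at hy
  by_cases hA : ∃ c ∈ cyc φ P.natDegree u, polar Q u c ≠ 0
  · obtain ⟨c, hc, hne⟩ := hA
    exact block_of r i hipos Q φ φ' h1 hφr hφ hInv Y hY hYfix P hPm hPdeg u huY hPu c hc hne
  by_cases hB : ∃ c ∈ cyc φ P.natDegree w, polar Q w c ≠ 0
  · obtain ⟨c, hc, hne⟩ := hB
    exact block_of r i hipos Q φ φ' h1 hφr hφ hInv Y hY hYfix P hPm hPdeg w hwY hPw c hc hne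
  push_neg at hA hB
  have hnpos : 0 < P.natDegree := hPdeg ▸ hipos
  have hφ'pow : φ' = φ ^ (r - 1) := by
    have h3 : φ ^ r = φ ^ (r - 1) * φ := by
      rw [← pow_succ, Nat.sub_add_cancel hr.pos]
    calc φ' = φ ^ r * φ' := by rw [hφr, one_mul]
      _ = φ ^ (r - 1) * (φ * φ') := by rw [h3, mul_assoc]
      _ = φ ^ (r - 1) := by rw [h1, mul_one]
  obtain ⟨Bw, hBw⟩ : ∃ B, B = cyc φ P.natDegree w := ⟨_, rfl⟩
  rw [← hBw] at hB
  have hBwY : Bw ≤ Y := hBw ▸ cyc_le φ Y hY _ w hwY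
  have hBwinv : ∀ z ∈ Bw, φ z ∈ Bw := hBw ▸ cyc_inv φ P hPm w hPw
  have hBwinv' : ∀ z ∈ Bw, φ' z ∈ Bw := by
    intro z hz
    rw [hφ'pow]
    exact pow_mem φ Bw hBwinv _ z hz
  have hwBw : w ∈ Bw := by
    rw [hBw]
    exact mem_cyc_self φ _ hnpos w
  -- `Bw` is killed by `P`
  have hBwP : ∀ z ∈ Bw, aeval φ P z = 0 := by
    have hK : ∀ z ∈ LinearMap.ker (aeval φ P), φ z ∈ LinearMap.ker (aeval φ P) := by
      intro z hz
      rw [LinearMap.mem_ker] at hz ⊢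
      rw [aeval_X_apply, hz, map_zero]
    have hle : Bw ≤ LinearMap.ker (aeval φ P) :=
      hBw ▸ cyc_le φ _ hK _ w (LinearMap.mem_ker.mpr hPw)
    intro z hz
    exact LinearMap.mem_ker.mp (hle hz)
  -- `Bw` is totally isotropic
  have hBwiso : ∀ a ∈ Bw, ∀ c ∈ Bw, polar Q a c = 0 := by
    have hLinv : ∀ v ∈ lker Q Bw Bw, φ v ∈ lker Q Bw Bw := by
      rintro v ⟨hv, hv'⟩
      refine ⟨hBwinv v hv, fun c hc => ?_⟩
      have h3 := adj_pow Q φ φ' h1 hφ 1 v c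
      rw [pow_one, pow_one] at h3
      rw [h3]
      exact hv' _ (hBwinv' c hc)
    have hwL : w ∈ lker Q Bw Bw := ⟨hwBw, hB⟩
    have hle : Bw ≤ lker Q Bw Bw := by
      have h5 := cyc_le φ _ hLinv P.natDegree w hwL
      rw [← hBw] at h5
      exact h5
    intro a ha c hc
    exact (hle ha).2 c hc
  -- `φ + φ'` is bijective on `Bw`
  obtain ⟨w', hw'Bw, hw'⟩ : ∃ w' ∈ Bw, φ w' + φ' w' = w := by
    have hmap : ∀ z ∈ Bw, (φ + φ') z ∈ Bw := fun z hz =>
      Bw.add_mem (hBwinv z hz) (hBwinv' z hz)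
    have hinj : Function.Injective ((φ + φ').restrict hmap) := by
      rw [injective_iff_map_eq_zero]
      intro z hz
      have h3 : (φ + φ') (z : V) = 0 := by
        have h4 := congrArg Subtype.val hz
        rw [LinearMap.coe_restrict_apply] at h4
        exact h4
      rw [LinearMap.add_apply] at h3
      have h5 := sum_inj r hr2 φ φ' h1 hφr (z : V) (hYfix _ (hBwY z.2)) h3
      exact Subtype.ext h5
    obtain ⟨w', hw'⟩ := (LinearMap.injective_iff_surjective.mp hinj) ⟨w, hwBw⟩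
    refine ⟨(w' : V), w'.2, ?_⟩
    have h4 := congrArg Subtype.val hw'
    rw [LinearMap.coe_restrict_apply, LinearMap.add_apply] at h4
    exact h4
  -- the vector `v = u + w'`
  have hvY : u + w' ∈ Y := Y.add_mem huY (hBwY hw'Bw)
  have hPv : aeval φ P (u + w') = 0 := by rw [map_add, hPu, hBwP w' hw'Bw, add_zero]
  have hvc : u + w' ∈ cyc φ P.natDegree (u + w') := mem_cyc_self φ _ hnpos _
  have hc : φ (u + w') ∈ cyc φ P.natDegree (u + w') := cyc_inv φ P hPm _ hPv _ hvc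
  have huu : polar Q u (φ u) = 0 :=
    hA _ (cyc_inv φ P hPm u hPu u (mem_cyc_self φ _ hnpos u))
  have hww : polar Q w' (φ w') = 0 := hBwiso w' hw'Bw _ (hBwinv w' hw'Bw)
  have hwu : polar Q w' (φ u) = polar Q u (φ' w') := by
    have h3 := adj_pow Q φ φ' h1 hφ 1 u w'
    rw [pow_one, pow_one] at h3
    rw [polar_comm, h3]
  have hne : polar Q (u + w') (φ (u + w')) ≠ 0 := by
    have h3 : polar Q (u + w') (φ (u + w')) = polar Q u w := by
      rw [map_add, polar_add_left, polar_add_right, polar_add_right, huu, hww, hwu, zero_add,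
        add_zero, ← polar_add_right, hw']
    rw [h3]
    exact hy
  exact block_of r i hipos Q φ φ' h1 hφr hφ hInv Y hY hYfix P hPm hPdeg (u + w') hvY hPv _ hc hne

end abstract

section concrete

open scoped Matrix
open Cfsg.Agent.Lib.Helper44.TPStmt

theorem mem_FxJ {F : Type u} [Field F] {d : ℕ} (x : Matrix (J d) (J d) F) (v : J d → F) :
    v ∈ Fx x ↔ x *ᵥ v = v := by
  unfold Fx
  rw [LinearMap.mem_ker, LinearMap.sub_apply, Matrix.toLin'_apply, LinearMap.id_apply,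
    sub_eq_zero]

theorem setupJ {F : Type u} [Field F] [Fintype F] (p : ℕ) [Fact p.Prime] [CharP F p] (d r : ℕ)
    [Fact r.Prime] (hrp : r ≠ p) (hInvDim : InvDim.{u}) (x : Matrix.GeneralLinearGroup (J d) F)
    (hx : x ∈ Cfsg.isometryGroup F (Cfsg.quadFormPlus d F)) (hxr : x ^ r = 1) :
    ∃ φ φ' : Module.End F (J d → F), φ * φ' = 1 ∧ φ' * φ = 1 ∧ φ ^ r = 1 ∧
      (∀ v, φ v = (x : Matrix (J d) (J d) F) *ᵥ v) ∧ (∀ v, plusQ d F (φ v) = plusQ d F v) ∧
      (∀ R : Submodule F (J d → F), (∀ v ∈ R, φ v ∈ R) → (∀ v ∈ R, φ v = v → v = 0) →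
        orderOf ((Fintype.card F : ℕ) : ZMod r) ∣ finrank F R) := by
  refine ⟨Matrix.toLinAlgEquiv' (x : Matrix (J d) (J d) F),
    Matrix.toLinAlgEquiv' ((x⁻¹ : Matrix.GeneralLinearGroup (J d) F) : Matrix (J d) (J d) F),
    ?_, ?_, ?_, ?_, ?_, ?_⟩
  · rw [← map_mul, ← Units.val_mul, mul_inv_cancel, Units.val_one, map_one]
  · rw [← map_mul, ← Units.val_mul, inv_mul_cancel, Units.val_one, map_one]
  · rw [← map_pow, ← Units.val_pow_eq_pow_val, hxr, Units.val_one, map_one]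
  · intro v
    rw [Matrix.toLinAlgEquiv'_apply]
  · intro v
    rw [Matrix.toLinAlgEquiv'_apply]
    exact hx v v
  · intro R hR hfix
    apply hInvDim F p d r hrp x hxr R
    · apply Submodule.map_le_iff_le_comap.mpr
      intro v hv
      rw [Submodule.mem_comap, Matrix.toLin'_apply, ← Matrix.toLinAlgEquiv'_apply]
      exact hR v hv
    · rw [Submodule.eq_bot_iff]
      rintro v ⟨hv, hv'⟩
      apply hfix v hv
      rw [Matrix.toLinAlgEquiv'_apply]
      exact (mem_FxJ _ v).mp hv'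

/-- translation of the hypotheses on `Y` -/
theorem translJ {F : Type u} [Field F] (d : ℕ) (x : Matrix (J d) (J d) F)
    (φ : Module.End F (J d → F)) (hφa : ∀ v, φ v = x *ᵥ v) (Y : Submodule F (J d → F))
    (hYs : Stab x Y) (hYnd : NDeg d F Y) (hYfix : Y ⊓ Fx x = ⊥) :
    (∀ y ∈ Y, φ y ∈ Y) ∧ (∀ y ∈ Y, φ y = y → y = 0) ∧
    (∀ u ∈ Y, u ≠ 0 → ∃ y ∈ Y, polar (plusQ d F) u y ≠ 0) := by
  refine ⟨?_, ?_, ?_⟩
  · intro y hy
    rw [hφa, ← Matrix.toLin'_apply]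
    exact hYs (Submodule.mem_map_of_mem hy)
  · intro y hy hfix
    have h3 : y ∈ Y ⊓ Fx x := ⟨hy, (mem_FxJ x y).mpr (by rw [← hφa]; exact hfix)⟩
    rw [hYfix] at h3
    exact (Submodule.mem_bot F).mp h3
  · intro u hu hu0
    exact (hYnd u hu hu0).2

/-- translation of the conclusion -/
theorem translBackJ {F : Type u} [Field F] (d : ℕ) (x : Matrix (J d) (J d) F)
    (φ : Module.End F (J d → F)) (hφa : ∀ v, φ v = x *ᵥ v) (B : Submodule F (J d → F))
    (hB : ∀ v ∈ B, φ v ∈ B)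
    (hrad : ∀ b ∈ B, (∀ z ∈ B, polar (plusQ d F) b z = 0) → b = 0) :
    Stab x B ∧ NDeg d F B := by
  constructor
  · apply Submodule.map_le_iff_le_comap.mpr
    intro v hv
    rw [Submodule.mem_comap, Matrix.toLin'_apply, ← hφa]
    exact hB v hv
  · intro w hw hw0
    have h3 : ∃ z ∈ B, polar (plusQ d F) w z ≠ 0 := by
      by_contra hcon
      push_neg at hcon
      exact hw0 (hrad w hw hcon)
    obtain ⟨z, hz, hwz⟩ := h3
    refine ⟨⟨z, hz, ?_⟩, ⟨z, hz, hwz⟩⟩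
    rw [polar_comm]
    exact hwz

/-- S5973/BFE with the `InvDim` input explicit. -/
theorem main' : InvDim.{u} → BlockFindE.{u} := by
  intro hInvDim F _ _ p _ _ d r _ hr2 hrp hev x hx hxr Y hYs hYnd hYfix hYne
  obtain ⟨φ, φ', h1, h2, hφr, hφa, hφQ, hInv⟩ := setupJ p d r hrp hInvDim x hx hxr
  obtain ⟨hY, hYfix', hYnd'⟩ := translJ d (x : Matrix (J d) (J d) F) φ hφa Y hYs hYnd hYfix
  obtain ⟨B, hBY, hBinv, hBrad, hBdim⟩ := bfe' (p := p) r hr2 hrp hev
    (plusQ d F) φ φ' h1 h2 hφr hφQ hInv Y hY hYfix' hYnd' hYne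
  obtain ⟨hS, hN⟩ := translBackJ d (x : Matrix (J d) (J d) F) φ hφa B hBinv hBrad
  exact ⟨B, hBY, hS, hN, hBdim⟩

/-- S5973/BFE, exact call signature. -/
theorem main : BlockFindE.{u} := main' Cfsg.Agent.Lib.Helper53.TPINVDIM.main

end concrete

end Cfsg.Agent.Lib.Helper85.TPBFE
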