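import Cfsg.Agent.Lib.Helper85.DCTools
import Cfsg.Agent.Lib.Helper50.Cores

/-!
# S4719 / RO: reduction of Theorem A to the case without `Γ`-normal subgroups of odd order.
-/

set_option autoImplicit false

namespace Cfsg.Agent.Lib.Helper85.DCRO

open Cfsg Cfsg.Agent.Lib.Helper75.DCStmt Cfsg.Agent.Lib.Helper85.DCTools

universe u

theorem main (hQC : QC.{u}) : RO.{u} := by
  intro a c N hOdd hKBr Γ _ _ G v w hS hGen hfac
  haveI := hS.normal
  have hmem : sSup {K : Subgroup Γ | K.Normal ∧ K ≤ G ∧ Odd (Nat.card K)} ∈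
      {K : Subgroup Γ | K.Normal ∧ K ≤ G ∧ Odd (Nat.card K)} := by
    apply Cfsg.Agent.Lib.Helper50.CL.sSup_mem_of_sup_closed
      {K : Subgroup Γ | K.Normal ∧ K ≤ G ∧ Odd (Nat.card K)}
    · rintro K₁ ⟨hn₁, hl₁, ho₁⟩ K₂ ⟨hn₂, hl₂, ho₂⟩
      refine ⟨inferInstance, sup_le hl₁ hl₂, ?_⟩
      have := Cfsg.Agent.Lib.Helper50.Cores.card_sup_dvd_of_normal K₁ K₂
      exact Odd.of_dvd_nat (ho₁.mul ho₂) this
    · exact Set.toFinite _
    · exact ⟨⊥, inferInstance, bot_le, by simp⟩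
    · exact le_rfl
  have hmax : ∀ K : Subgroup Γ, K.Normal → K ≤ G → Odd (Nat.card K) →
      K ≤ sSup {K : Subgroup Γ | K.Normal ∧ K ≤ G ∧ Odd (Nat.card K)} :=
    fun K h1 h2 h3 => le_sSup ⟨h1, h2, h3⟩
  generalize sSup {K : Subgroup Γ | K.Normal ∧ K ≤ G ∧ Odd (Nat.card K)} = O at hmem hmax
  obtain ⟨hOn, hOG, hOodd⟩ := hmem
  haveI := hOn
  -- `|O| ≤ c ^ 3`
  have hSO : Setting O v w c :=
    ⟨hOn, hS.v_ne, hS.w_ne, hS.vw_ne, hS.v_sq, hS.w_sq, hS.comm, fun x hx =>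
      (Subgroup.card_le_of_le (inf_le_inf_right _ hOG)).trans (hS.cent x hx)⟩
  have hOc : Nat.card O ≤ c ^ 3 := by
    refine hOdd Γ O v w hSO ?_
    rw [Nat.factorization_eq_zero_of_not_dvd hOodd.not_two_dvd_nat]
  have hvO : v ∉ O := fun h => hS.v_ne (eq_one_of_sq_of_odd O hOodd v h hS.v_sq)
  have hwO : w ∉ O := fun h => hS.w_ne (eq_one_of_sq_of_odd O hOodd w h hS.w_sq)
  have hvwO : v * w ∉ O := fun h => vw_ne_one hS (eq_one_of_sq_of_odd O hOodd _ h (vw_sq hS))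
  have hS' := setting_quot hQC G O v w c hS hOG hvO hwO hvwO
  have hGen' : Gen (G.map (QuotientGroup.mk' O)) (QuotientGroup.mk' O v)
      (QuotientGroup.mk' O w) := by
    intro γ'
    obtain ⟨γ, rfl⟩ := QuotientGroup.mk'_surjective O γ'
    obtain ⟨x, hx, u, hu, rfl⟩ := hGen γ
    refine ⟨QuotientGroup.mk' O x, Subgroup.mem_map_of_mem _ hx, QuotientGroup.mk' O u, ?_,
      map_mul _ _ _⟩
    rcases hu with rfl | rfl | rfl | rfl
    · left; exact map_one _
    · right; left; rfl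
    · right; right; left; rfl
    · right; right; right; exact map_mul _ _ _
  have hNoOdd : NoOdd (G.map (QuotientGroup.mk' O)) := by
    intro K' hK'n hK'G hK'odd
    have h2 : K'.comap (QuotientGroup.mk' O) ≤ O := by
      apply hmax
      · exact hK'n.comap _
      · calc K'.comap (QuotientGroup.mk' O)
            ≤ (G.map (QuotientGroup.mk' O)).comap (QuotientGroup.mk' O) :=
              Subgroup.comap_mono hK'G
          _ = G := comap_map_mk O G hOG
      · rw [card_comap_mk]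
        exact hK'odd.mul hOodd
    rw [eq_bot_iff]
    intro k hk
    obtain ⟨g, rfl⟩ := QuotientGroup.mk'_surjective O k
    have hg : g ∈ O := h2 hk
    rw [Subgroup.mem_bot]
    exact (QuotientGroup.eq_one_iff g).mpr hg
  have hcard := card_map_mk O G hOG
  have hfac' : (Nat.card ↥(G.map (QuotientGroup.mk' O))).factorization 2 ≤ a := by
    have hdvd : Nat.card ↥(G.map (QuotientGroup.mk' O)) ∣ Nat.card G := ⟨_, hcard⟩
    have := (Nat.factorization_le_iff_dvd (Nat.card_pos.ne') (Nat.card_pos.ne')).mpr hdvd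
    exact (this 2).trans hfac
  have hN := hKBr (Γ ⧸ O) (G.map (QuotientGroup.mk' O)) _ _ hS' hGen' hNoOdd hfac'
  rw [hcard]
  calc Nat.card ↥(G.map (QuotientGroup.mk' O)) * Nat.card ↥O ≤ N * c ^ 3 :=
        Nat.mul_le_mul hN hOc
    _ = c ^ 3 * N := mul_comm _ _

end Cfsg.Agent.Lib.Helper85.DCRO
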