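import Cfsg.Agent.Lib.Helper85.DCTools

/-!
# S4719 / TWO: Theorem A in the presence of a nontrivial `Γ`-normal 2-subgroup of `G`.
-/

set_option autoImplicit false

namespace Cfsg.Agent.Lib.Helper85.DCTWO

open Cfsg Cfsg.Agent.Lib.Helper75.DCStmt Cfsg.Agent.Lib.Helper85.DCTools

universe u

/-- `G / C_G(A)` embeds in `Sym(A)`. -/
theorem card_le_perm {Γ : Type u} [Group Γ] [Finite Γ] (G A : Subgroup Γ) [A.Normal] (x : Γ)
    (hxA : x ∈ A) :
    Nat.card ↥G ≤ Nat.card ↥(G ⊓ Subgroup.centralizer ({x} : Set Γ)) * (Nat.card ↥A).factorial := by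
  classical
  let φ : ↥G →* Equiv.Perm ↥A :=
    (MulAut.toPerm ↥A).comp ((MulAut.conjNormal (H := A)).comp G.subtype)
  have h1 := Subgroup.card_mul_index φ.ker
  have h2 : φ.ker.index = Nat.card φ.range := Subgroup.index_ker φ
  have h3 : Nat.card φ.range ≤ (Nat.card ↥A).factorial := by
    rw [← Nat.card_perm]
    exact Subgroup.card_le_card_group _
  have h4 : Nat.card φ.ker ≤ Nat.card ↥(G ⊓ Subgroup.centralizer ({x} : Set Γ)) := by
    have hmem : ∀ k : ↥φ.ker, ((k : ↥G) : Γ) ∈ G ⊓ Subgroup.centralizer ({x} : Set Γ) := by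
      intro k
      rw [Subgroup.mem_inf]
      refine ⟨(k : ↥G).2, ?_⟩
      rw [Subgroup.mem_centralizer_iff]
      intro h hh
      rw [Set.mem_singleton_iff] at hh
      subst hh
      have hk : φ (k : ↥G) = 1 := MonoidHom.mem_ker.mp k.2
      have hk2 : φ (k : ↥G) ⟨h, hxA⟩ = ⟨h, hxA⟩ := by rw [hk]; rfl
      have hk3 : ((k : ↥G) : Γ) * h * ((k : ↥G) : Γ)⁻¹ = h := congrArg Subtype.val hk2
      calc h * ((k : ↥G) : Γ) = ((k : ↥G) : Γ) * h * ((k : ↥G) : Γ)⁻¹ * ((k : ↥G) : Γ) := by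
            rw [hk3]
        _ = ((k : ↥G) : Γ) * h := by group
    apply Nat.card_le_card_of_injective (fun k : ↥φ.ker => (⟨((k : ↥G) : Γ), hmem k⟩ :
      ↥(G ⊓ Subgroup.centralizer ({x} : Set Γ))))
    intro k₁ k₂ h
    apply Subtype.ext
    apply Subtype.ext
    exact congrArg (fun z : ↥(G ⊓ Subgroup.centralizer ({x} : Set Γ)) => (z : Γ)) h
  calc Nat.card ↥G = Nat.card φ.ker * φ.ker.index := h1.symm
    _ = Nat.card φ.ker * Nat.card φ.range := by rw [h2]
    _ ≤ _ := Nat.mul_le_mul h4 h3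

theorem main (hQC : QC.{u}) : TWO.{u} := by
  intro a c N hKB Γ _ _ G v w hS hfac T hTn hTG hT2 hT1
  haveI : Fact (Nat.Prime 2) := ⟨Nat.prime_two⟩
  haveI := hTn
  haveI hAn : ((Subgroup.center ↥T).map T.subtype).Normal := inferInstance
  have hAT : (Subgroup.center ↥T).map T.subtype ≤ T := Subgroup.map_subtype_le _
  have hAG : (Subgroup.center ↥T).map T.subtype ≤ G := hAT.trans hTG
  haveI : Nontrivial ↥T := (Subgroup.nontrivial_iff_ne_bot _).mpr hT1
  haveI := hT2.center_nontrivial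
  have hA1 : (Subgroup.center ↥T).map T.subtype ≠ ⊥ := by
    rw [Ne, Subgroup.map_eq_bot_iff_of_injective _ T.subtype_injective]
    exact (Subgroup.nontrivial_iff_ne_bot _).mp inferInstance
  have hG0 : Nat.card ↥G ≠ 0 := Nat.card_pos.ne'
  -- `|A| ≤ 2 ^ (a + 1)`
  obtain ⟨k, hk⟩ := (IsPGroup.iff_card (p := 2)).mp hT2
  have hk1 : k ≤ a + 1 := by
    have h1 : 2 ^ k ∣ Nat.card ↥G := by
      rw [← hk]
      exact Subgroup.card_dvd_of_le hTG
    exact ((Nat.Prime.pow_dvd_iff_le_factorization Nat.prime_two hG0).mp h1).trans hfac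
  have hAle : Nat.card ↥((Subgroup.center ↥T).map T.subtype) ≤ 2 ^ (a + 1) := by
    calc Nat.card ↥((Subgroup.center ↥T).map T.subtype) ≤ Nat.card ↥T :=
          Subgroup.card_le_of_le hAT
      _ = 2 ^ k := hk
      _ ≤ 2 ^ (a + 1) := Nat.pow_le_pow_right (by norm_num) hk1
  generalize (Subgroup.center ↥T).map T.subtype = A at hAn hAT hAG hA1 hAle
  haveI := hAn
  by_cases hcase : ∃ x : Γ, (x = v ∨ x = w ∨ x = v * w) ∧ x ∈ A
  · obtain ⟨x, hx, hxA⟩ := hcase
    have h1 := card_le_perm G A x hxA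
    have h2 := hS.cent x hx
    have h3 : (Nat.card ↥A).factorial ≤ (2 ^ (a + 1)).factorial := Nat.factorial_le hAle
    have h4 : Nat.card ↥G ≤ c * (2 ^ (a + 1)).factorial := h1.trans (Nat.mul_le_mul h2 h3)
    exact h4.trans (Nat.le_add_right _ _)
  · have hv : v ∉ A := fun h => hcase ⟨v, Or.inl rfl, h⟩
    have hw : w ∉ A := fun h => hcase ⟨w, Or.inr (Or.inl rfl), h⟩
    have hvw : v * w ∉ A := fun h => hcase ⟨v * w, Or.inr (Or.inr rfl), h⟩
    have hS' := setting_quot hQC G A v w c hS hAG hv hw hvw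
    have hcard := card_map_mk A G hAG
    have hA2 : 2 ∣ Nat.card ↥A := by
      have hApg : IsPGroup 2 ↥A := hT2.to_le hAT
      rcases hApg.card_eq_or_dvd with h | h
      · exact absurd (Subgroup.card_eq_one.mp h) hA1
      · exact h
    have hfac' : (Nat.card ↥(G.map (QuotientGroup.mk' A))).factorization 2 ≤ a := by
      have h1 : 2 ^ ((Nat.card ↥(G.map (QuotientGroup.mk' A))).factorization 2 + 1) ∣
          Nat.card ↥G := by
        rw [hcard, pow_succ]
        exact Nat.mul_dvd_mul (Nat.ordProj_dvd _ 2) hA2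
      have h2 := (Nat.Prime.pow_dvd_iff_le_factorization Nat.prime_two hG0).mp h1
      omega
    have hN := hKB (Γ ⧸ A) (G.map (QuotientGroup.mk' A)) _ _ hS' hfac'
    have h4 : Nat.card ↥G ≤ 2 ^ (a + 1) * N := by
      rw [hcard, mul_comm]
      exact Nat.mul_le_mul hAle hN
    exact h4.trans (Nat.le_add_left _ _)

end Cfsg.Agent.Lib.Helper85.DCTWO
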