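import Cfsg.Agent.Lib.Helper75.DCStmt

/-!
# S4719: tools shared by the pieces RO, TWO, CZ (quotients of a `Setting`).
-/

set_option autoImplicit false

namespace Cfsg.Agent.Lib.Helper85.DCTools

open Cfsg Cfsg.Agent.Lib.Helper75.DCStmt

universe u

variable {Γ : Type u} [Group Γ]

theorem card_comap_mk [Finite Γ] (T : Subgroup Γ) [T.Normal] (K : Subgroup (Γ ⧸ T)) :
    Nat.card ↥(K.comap (QuotientGroup.mk' T)) = Nat.card ↥K * Nat.card ↥T := by
  have h1 := Subgroup.card_mul_index (K.comap (QuotientGroup.mk' T))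
  have h2 : (K.comap (QuotientGroup.mk' T)).index = K.index :=
    Subgroup.index_comap_of_surjective K (QuotientGroup.mk'_surjective T)
  have h3 := Subgroup.card_mul_index K
  have h4 := Subgroup.card_eq_card_quotient_mul_card_subgroup T
  have h5 : K.index ≠ 0 := Subgroup.index_ne_zero_of_finite
  rw [h2] at h1
  have h6 : Nat.card ↥(K.comap (QuotientGroup.mk' T)) * K.index =
      Nat.card ↥K * Nat.card ↥T * K.index := by
    rw [h1, h4, ← h3]; ring
  exact Nat.eq_of_mul_eq_mul_right (Nat.pos_of_ne_zero h5) h6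

theorem comap_map_mk (T : Subgroup Γ) [T.Normal] (G : Subgroup Γ) (hTG : T ≤ G) :
    (G.map (QuotientGroup.mk' T)).comap (QuotientGroup.mk' T) = G := by
  rw [Subgroup.comap_map_eq, QuotientGroup.ker_mk']
  exact sup_eq_left.mpr hTG

theorem card_map_mk [Finite Γ] (T : Subgroup Γ) [T.Normal] (G : Subgroup Γ) (hTG : T ≤ G) :
    Nat.card ↥G = Nat.card ↥(G.map (QuotientGroup.mk' T)) * Nat.card ↥T := by
  rw [← card_comap_mk, comap_map_mk T G hTG]

theorem eq_one_of_sq_of_odd [Finite Γ] (O : Subgroup Γ) (hO : Odd (Nat.card ↥O)) (x : Γ)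
    (hx : x ∈ O) (hxx : x * x = 1) : x = 1 := by
  have h1 : x ^ 2 = 1 := by rw [pow_two]; exact hxx
  have h2 : x ^ Nat.card ↥O = 1 := by
    have h0 : (⟨x, hx⟩ : ↥O) ^ Nat.card ↥O = 1 := pow_card_eq_one'
    have h3 := congrArg Subtype.val h0
    rw [Subgroup.coe_pow, Subgroup.coe_one] at h3
    exact h3
  have h3 : x ^ Nat.gcd 2 (Nat.card ↥O) = 1 := pow_gcd_eq_one.mpr ⟨h1, h2⟩
  have h4 : Nat.gcd 2 (Nat.card ↥O) = 1 := Nat.coprime_two_left.mpr hO
  rw [h4, pow_one] at h3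
  exact h3

/-- A `Setting` passes to the quotient by a `Γ`-normal subgroup `T ≤ G` not containing `v`, `w`,
`v * w`. -/
theorem setting_quot (hQC : QC.{u}) [Finite Γ] (G T : Subgroup Γ) [T.Normal] (v w : Γ) (c : ℕ)
    (hS : Setting G v w c) (hTG : T ≤ G) (hv : v ∉ T) (hw : w ∉ T) (hvw : v * w ∉ T) :
    Setting (G.map (QuotientGroup.mk' T)) (QuotientGroup.mk' T v) (QuotientGroup.mk' T w) c := by
  haveI := hS.normal
  refine ⟨?_, ?_, ?_, ?_, ?_, ?_, ?_, ?_⟩
  · exact Subgroup.Normal.map hS.normal _ (QuotientGroup.mk'_surjective T)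
  · intro h
    exact hv ((QuotientGroup.eq_one_iff v).mp h)
  · intro h
    exact hw ((QuotientGroup.eq_one_iff w).mp h)
  · intro h
    have h1 : v⁻¹ * w ∈ T := QuotientGroup.eq.mp h
    have h2 : v⁻¹ = v := inv_eq_of_mul_eq_one_right hS.v_sq
    rw [h2] at h1
    exact hvw h1
  · rw [← map_mul, hS.v_sq, map_one]
  · rw [← map_mul, hS.w_sq, map_one]
  · rw [← map_mul, ← map_mul, hS.comm]
  · intro x hx
    rcases hx with rfl | rfl | rfl
    · exact (hQC Γ T G v hTG).trans (hS.cent v (Or.inl rfl))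
    · exact (hQC Γ T G w hTG).trans (hS.cent w (Or.inr (Or.inl rfl)))
    · rw [← map_mul]
      exact (hQC Γ T G (v * w) hTG).trans (hS.cent (v * w) (Or.inr (Or.inr rfl)))

/-- `v * w` is an involution different from `1`. -/
theorem vw_ne_one {G : Subgroup Γ} {v w : Γ} {c : ℕ} (hS : Setting G v w c) : v * w ≠ 1 := by
  intro h
  apply hS.vw_ne
  have h2 : v⁻¹ = v := inv_eq_of_mul_eq_one_right hS.v_sq
  calc v = v⁻¹ := h2.symm
    _ = w := inv_eq_of_mul_eq_one_right h

theorem vw_sq {G : Subgroup Γ} {v w : Γ} {c : ℕ} (hS : Setting G v w c) :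
    (v * w) * (v * w) = 1 := by
  calc (v * w) * (v * w) = v * (w * v) * w := by group
    _ = v * (v * w) * w := by rw [hS.comm]
    _ = (v * v) * (w * w) := by group
    _ = 1 := by rw [hS.v_sq, hS.w_sq, one_mul]

end Cfsg.Agent.Lib.Helper85.DCTools
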