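import Cfsg.Agent.Lib.Helper89.DSStmt
import Cfsg.Agent.Lib.Helper76.NCONECLASS
import Cfsg.Agent.Lib.Helper76.NCINV2
import Cfsg.Agent.Lib.Helper20.NCCASE4

/-!
# S0508 / V4ODD: `S = C(t)` of order 4 in a nonabelian simple group: `G ≅ PSL(2,4) ≅ PSL(2,5)`.
-/

set_option autoImplicit false

namespace Cfsg.Agent.Lib.Helper85.DSV4ODD

open Cfsg

universe u

theorem main : Cfsg.Agent.Lib.Helper89.DSStmt.V4Odd.{u} := by
  intro hIso G _ _ _ hna t S ht hS4 hSC
  haveI : Fact (Nat.Prime 2) := ⟨Nat.prime_two⟩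
  have htS : t ∈ (S : Subgroup G) := by
    rw [hSC, Subgroup.mem_centralizer_iff]
    intro w hw
    rw [Set.mem_singleton_iff] at hw
    subst hw
    rfl
  have hKS : Subgroup.zpowers t ≤ (S : Subgroup G) := by
    rw [Subgroup.zpowers_le]
    exact htS
  have hrel : (Subgroup.zpowers t).relIndex (S : Subgroup G) = 2 := by
    have e1 := Cfsg.Agent.Lib.Helper76.PSolv.card_eq_card_mul_relIndex hKS
    rw [hS4, Nat.card_zpowers, ht] at e1
    omega
  have hone := Cfsg.Agent.Lib.Helper76.NCONECLASS.main G hna S (Subgroup.zpowers t) hKS hrel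
    inferInstance
  have hInv : Cfsg.Agent.Lib.Helper89.NCStmt.Inv2On G := Cfsg.Agent.Lib.Helper76.NCINV2.main G hna
  have hCIT : Cfsg.Agent.Lib.Helper89.NCStmt.CITOn G := by
    intro u hu
    obtain ⟨g, hg⟩ := isConj_iff.mp (hone t u ht hu)
    intro x
    refine ⟨2, ?_⟩
    have hx : (g * t * g⁻¹) * (x : G) = (x : G) * (g * t * g⁻¹) := by
      rw [hg]
      exact Subgroup.mem_centralizer_iff.mp x.2 u (Set.mem_singleton _)
    have hmem : g⁻¹ * (x : G) * g ∈ (S : Subgroup G) := by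
      rw [hSC, Subgroup.mem_centralizer_iff]
      intro w hw
      rw [Set.mem_singleton_iff] at hw
      subst hw
      calc w * (g⁻¹ * (x : G) * g) = g⁻¹ * ((g * w * g⁻¹) * (x : G)) * g := by group
        _ = g⁻¹ * ((x : G) * (g * w * g⁻¹)) * g := by rw [hx]
        _ = g⁻¹ * (x : G) * g * w := by group
    have h4 : (⟨g⁻¹ * (x : G) * g, hmem⟩ : ↥(S : Subgroup G)) ^ 4 = 1 := by
      rw [← hS4]
      exact pow_card_eq_one'
    have h4' : (g⁻¹ * (x : G) * g) ^ 4 = 1 := by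
      have := congrArg Subtype.val h4
      simpa using this
    apply Subtype.ext
    rw [Subgroup.coe_pow, Subgroup.coe_one]
    have h5 : (x : G) = g * (g⁻¹ * (x : G) * g) * g⁻¹ := by group
    rw [h5, conj_pow]
    norm_num
    exact h4'
  obtain ⟨F, instF, instFF, hF4, ⟨e⟩⟩ := Cfsg.Agent.Lib.Helper20.NCCASE4.main G hna hInv hCIT S hS4
  haveI : Fact (Nat.Prime 5) := ⟨by norm_num⟩
  obtain ⟨e2⟩ := @hIso F (ZMod 5) instF instFF _ _ hF4 (ZMod.card 5)
  refine ⟨ZMod 5, inferInstance, inferInstance, ?_, ⟨e.trans e2⟩⟩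
  rw [ZMod.card 5]
  decide

end Cfsg.Agent.Lib.Helper85.DSV4ODD
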