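import Mathlib
import Cfsg.Agent.Lib.Helper9.S63Stmt

set_option autoImplicit false

/-! S1363 piece CYCNORM: subgroups of a cyclic subgroup `V` are normalized by `N_G(V)`
(conjugation acts on `V` as a power map). -/

namespace Cfsg.Agent.Lib.Helper85.S63CYCNORM

open Cfsg.Agent.Lib.Helper9.S63Stmt

universe u

theorem conj_mem {G : Type*} [Group G] (V A : Subgroup G) (hV : IsCyclic V) (hAV : A ≤ V)
    (g : G) (hg : ∀ x ∈ V, g * x * g⁻¹ ∈ V) : ∀ a ∈ A, g * a * g⁻¹ ∈ A := by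
  obtain ⟨v, hv⟩ := hV.exists_generator
  have hgv : g * (v : G) * g⁻¹ ∈ V := hg _ v.2
  obtain ⟨k, hk⟩ := hv ⟨g * (v : G) * g⁻¹, hgv⟩
  have hk' : (v : G) ^ k = g * (v : G) * g⁻¹ := by
    have h := congrArg Subtype.val hk
    simpa using h
  intro a ha
  obtain ⟨j, hj⟩ := hv ⟨a, hAV ha⟩
  have hj' : (v : G) ^ j = a := by
    have h := congrArg Subtype.val hj
    simpa using h
  have h3 : g * a * g⁻¹ = a ^ k := by
    rw [← hj', ← conj_zpow, ← hk', ← zpow_mul, ← zpow_mul, mul_comm]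
  rw [h3]
  exact A.zpow_mem ha k

theorem main : CycNorm.{u} := by
  intro G _ _ V A hV hAV g hg
  have h1 : ∀ x ∈ V, g * x * g⁻¹ ∈ V := fun x hx => (Subgroup.mem_normalizer_iff.mp hg x).mp hx
  have h2 : ∀ x ∈ V, g⁻¹ * x * g⁻¹⁻¹ ∈ V := fun x hx => by
    rw [inv_inv]
    exact (Subgroup.mem_normalizer_iff''.mp hg x).mp hx
  have c1 := conj_mem V A hV hAV g h1
  have c2 := conj_mem V A hV hAV g⁻¹ h2
  rw [Subgroup.mem_normalizer_iff]
  intro t
  constructor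
  · exact c1 t
  · intro h
    have h3 := c2 _ h
    have e : g⁻¹ * (g * t * g⁻¹) * g⁻¹⁻¹ = t := by group
    rwa [e] at h3

end Cfsg.Agent.Lib.Helper85.S63CYCNORM
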