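import Mathlib
import Cfsg.Agent.Lib.Helper9.S63Stmt

set_option autoImplicit false

/-! S1363 piece NORMCOND: the normalizer condition inside a nilpotent subgroup `Q`. -/

namespace Cfsg.Agent.Lib.Helper85.S63NORMCOND

open Cfsg.Agent.Lib.Helper9.S63Stmt

universe u

theorem main : NormCond.{u} := by
  intro G _ _ Q V hQ hVQ hne
  haveI : Group.IsNilpotent ↥Q := hQ
  have hlt : V.subgroupOf Q < ⊤ := by
    rw [lt_top_iff_ne_top, Ne, Subgroup.subgroupOf_eq_top]
    intro h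
    exact hne (le_antisymm hVQ h)
  have hnc := Group.normalizerCondition_of_isNilpotent (G := ↥Q) (V.subgroupOf Q) hlt
  obtain ⟨g, hgN, hgV⟩ := SetLike.exists_of_lt hnc
  refine ⟨(g : G), g.2, fun h => hgV (Subgroup.mem_subgroupOf.mpr h), ?_⟩
  rw [Subgroup.mem_normalizer_iff]
  intro t
  constructor
  · intro ht
    have h1 := (Subgroup.mem_normalizer_iff.mp hgN ⟨t, hVQ ht⟩).mp (Subgroup.mem_subgroupOf.mpr ht)
    exact Subgroup.mem_subgroupOf.mp h1
  · intro ht
    have htQ : t ∈ Q := by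
      have h2 : (g : G)⁻¹ * ((g : G) * t * (g : G)⁻¹) * (g : G) ∈ Q :=
        Q.mul_mem (Q.mul_mem (Q.inv_mem g.2) (hVQ ht)) g.2
      have e : (g : G)⁻¹ * ((g : G) * t * (g : G)⁻¹) * (g : G) = t := by group
      rwa [e] at h2
    have h1 := (Subgroup.mem_normalizer_iff.mp hgN ⟨t, htQ⟩).mpr (Subgroup.mem_subgroupOf.mpr ht)
    exact Subgroup.mem_subgroupOf.mp h1

end Cfsg.Agent.Lib.Helper85.S63NORMCOND
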