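import Mathlib
import Cfsg.Agent.Lib.Helper9.S63Stmt

set_option autoImplicit false

/-! S1363 piece POW: commuting elements of coprime orders are powers of their product. -/

namespace Cfsg.Agent.Lib.Helper85.S63POW

open Cfsg.Agent.Lib.Helper9.S63Stmt

universe u

theorem pow_aux {G : Type*} [Group G] (x ρ : G) (hc : Commute x ρ)
    (hcop : (orderOf x).Coprime (orderOf ρ)) : x ∈ Subgroup.zpowers (x * ρ) := by
  have h1 : (x * ρ) ^ (orderOf ρ) = x ^ (orderOf ρ) := by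
    rw [hc.mul_pow, pow_orderOf_eq_one, mul_one]
  obtain ⟨u, v, huv⟩ : ∃ u v : ℤ, u * (orderOf x : ℤ) + v * (orderOf ρ : ℤ) = 1 :=
    Nat.isCoprime_iff_coprime.mpr hcop
  have h2 : x = ((x * ρ) ^ (orderOf ρ)) ^ v := by
    rw [h1]
    have h3 : x ^ (1 : ℤ) = x ^ (u * (orderOf x : ℤ) + v * (orderOf ρ : ℤ)) := by rw [huv]
    rw [zpow_one, zpow_add, mul_comm u, zpow_mul, zpow_natCast, pow_orderOf_eq_one, one_zpow,
      one_mul, mul_comm v, zpow_mul, zpow_natCast] at h3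
    exact h3
  have h4 : (x * ρ) ^ (orderOf ρ) ∈ Subgroup.zpowers (x * ρ) :=
    Subgroup.pow_mem _ (Subgroup.mem_zpowers (x * ρ)) _
  have h5 := Subgroup.zpow_mem _ h4 v
  rw [← h2] at h5
  exact h5

theorem main : Pow.{u} := by
  intro G _ _ x ρ hxρ hcop
  refine ⟨pow_aux x ρ hxρ hcop, ?_⟩
  have h := pow_aux ρ x (show Commute ρ x from hxρ.symm) hcop.symm
  rw [← hxρ] at h
  exact h

end Cfsg.Agent.Lib.Helper85.S63POW
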