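import Cfsg.Agent.Lib.Helper14.TC3Stmt
import Cfsg.Agent.Lib.Helper3.TDBasic

/-!
# S4460 / DLA: PART II case A (a nonabelian `p`-quotient), assembled from the pieces
GALP, PCOMPL, TWOSUB, QTWO, A4, MONOP, TAK3.
-/

set_option autoImplicit false

namespace Cfsg.Agent.Lib.Helper85.TC3DLA

open Cfsg Cfsg.Agent.Lib.Helper14.TC3Stmt

universe u

theorem ordCompl_pow (p c : ℕ) (hp : p.Prime) : ordCompl[p] (p ^ c) = 1 := by
  rw [hp.factorization_pow, Finsupp.single_eq_same, Nat.div_self (pow_pos hp.pos c)]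

/-- the core, with `m = p ^ c` -/
theorem core (hPCompl : PCompl.{u}) (hTwoSub : TwoSub.{u}) (hQTwo : QTwo.{u}) (hA4 : A4.{u})
    (hMonoP : MonoP.{u}) (hTak3 : Tak3.{u})
    (G : Type u) [Group G] [Finite G] (m n p c : ℕ) (hD : Deg3 G m n) (hn : HasDeg G n)
    (hm1 : 1 < m) (hn1 : 1 < n) (hp : p.Prime) (hc : 0 < c) (hmp : m = p ^ c)
    (hψ : ∀ ψ : IrrCharacter G, ¬ p ∣ charDegree (ψ : G → ℂ) →
      HasDeg G (p ^ c * charDegree (ψ : G → ℂ))) :
    derivedSeries G 3 = ⊥ := by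
  have hpn : p ∣ n := by
    by_contra hcon
    obtain ⟨ψ, hψn⟩ := hn
    obtain ⟨χ, hχ⟩ := hψ ψ (by rw [hψn]; exact hcon)
    rw [hψn, ← hmp] at hχ
    rcases hD χ with h | h | h
    · rw [hχ] at h; nlinarith
    · rw [hχ] at h; nlinarith
    · rw [hχ] at h; nlinarith
  have hpm : p ∣ m := by rw [hmp]; exact dvd_pow_self p hc.ne'
  obtain ⟨H, hHn, hHcop, ⟨k, hk⟩, hDH⟩ := hPCompl G m n p hp hD hpm hpn
  have hm' : ordCompl[p] m = 1 := by rw [hmp]; exact ordCompl_pow p c hp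
  rw [hm'] at hDH
  have hD2 : Deg2 ↥H (ordCompl[p] n) := by
    intro χ
    rcases hDH χ with h | h | h
    · exact Or.inl h
    · exact Or.inl h
    · exact Or.inr h
  have hH2 := hTwoSub G H _ hD2
  haveI := hHn
  by_cases hh : ordCompl[p] n = 1
  · have hab : ∀ a ∈ H, ∀ b ∈ H, a * b = b * a := by
      intro a ha b hb
      have h1 : ∀ χ : IrrCharacter ↥H, charDegree (χ : ↥H → ℂ) = 1 := by
        intro χ
        rcases hD2 χ with h | h
        · exact h
        · rw [h, hh]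
      have := Cfsg.Agent.Lib.Helper3.TDBasic.comm_of_forall_degree_one h1 ⟨a, ha⟩ ⟨b, hb⟩
      exact congrArg Subtype.val this
    letI := Fintype.ofFinite G
    exact hTak3 G m n hD (hMonoP G H p hHn hp ⟨k, hk⟩ hab)
  · have hD2' : Deg2 (G ⧸ ⁅H, H⁆) m := by
      intro χ
      obtain ⟨a, ha⟩ := hA4 G H p hp ⟨k, hk⟩ χ
      have h1 := hD (Cfsg.Agent.Lib.Helper3.TDBasic.infl ⁅H, H⁆ χ)
      rw [Cfsg.Agent.Lib.Helper3.TDBasic.charDegree_infl] at h1
      rcases h1 with h | h | h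
      · exact Or.inl h
      · exact Or.inr h
      · exfalso
        apply hh
        rw [← h, ha]
        exact ordCompl_pow p a hp
    have hQ := hQTwo G ⁅H, H⁆ m hD2'
    have h2 : derivedSeries G 2 ≤ ⁅H, H⁆ := by
      rw [derivedSeries_succ, derivedSeries_one]
      exact hQ
    rw [derivedSeries_succ, eq_bot_iff, ← hH2]
    exact Subgroup.commutator_mono h2 h2

theorem main (hGalP : GalP.{u}) (hPCompl : PCompl.{u}) (hTwoSub : TwoSub.{u}) (hQTwo : QTwo.{u})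
    (hA4 : A4.{u}) (hMonoP : MonoP.{u}) (hTak3 : Tak3.{u}) : DlA.{u} := by
  intro G _ _ m n hD hm hn hm1 hn1 hmn hK
  obtain ⟨K, p, hKn, hp, hj, hnc⟩ := hK
  obtain ⟨c, hc, ⟨χ, hχ⟩, hψ⟩ := hGalP G K p hKn hp hj hnc
  have hpc : 1 < p ^ c := Nat.one_lt_pow hc.ne' hp.one_lt
  rcases hD χ with h | h | h
  · rw [hχ] at h
    omega
  · rw [hχ] at h
    exact core hPCompl hTwoSub hQTwo hA4 hMonoP hTak3 G m n p c hD hn hm1 hn1 hp hc h.symm hψ
  · rw [hχ] at h
    have hD' : Deg3 G n m := by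
      intro χ'
      rcases hD χ' with h' | h' | h'
      · exact Or.inl h'
      · exact Or.inr (Or.inr h')
      · exact Or.inr (Or.inl h')
    exact core hPCompl hTwoSub hQTwo hA4 hMonoP hTak3 G n m p c hD' hm hn1 hm1 hp hc h.symm hψ

end Cfsg.Agent.Lib.Helper85.TC3DLA
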