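import Cfsg.Agent.Lib.Helper14.TC3Stmt
import Cfsg.Agent.S0858
import Cfsg.Agent.S0859

/-!
# S4460 / MONOP: an abelian normal subgroup `A` with `G/A` a `p`-group makes `G` monomial
(S0858 with CHIEFP, then S0859).
-/

set_option autoImplicit false

namespace Cfsg.Agent.Lib.Helper85.TC3MONOP

open Cfsg Cfsg.Agent.Lib.Helper14.TC3Stmt

universe u

theorem main (h : ChiefP.{u}) : MonoP.{u} := by
  intro G _ _ A p hAn hp hk hab χ hχ
  haveI := hAn
  haveI : Fact p.Prime := ⟨hp⟩
  obtain ⟨k, hk'⟩ := hk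
  -- `G ⧸ A` is solvable
  have hpg : IsPGroup p (G ⧸ A) := IsPGroup.of_card (n := k) (by rw [← hk']; rfl)
  haveI : Group.IsNilpotent (G ⧸ A) := hpg.isNilpotent
  have hsolvQ : Group.IsSolvable (G ⧸ A) := inferInstance
  -- `A` is solvable
  haveI hsolvA : Group.IsSolvable ↥A :=
    Group.isSolvable_of_comm (fun a b => Subtype.ext (hab a a.2 b b.2))
  haveI hsolvG : Group.IsSolvable G :=
    Group.isSolvable_of_ker_le_range A.subtype (QuotientGroup.mk' A) (by
      rw [QuotientGroup.ker_mk', Subgroup.range_subtype])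
  have hchief := h G A p hAn hp ⟨k, hk'⟩
  have hrel := fun (χ : G → ℂ) (hχ : Cfsg.IsIrrCharacter G χ) =>
    Cfsg.Agent.S0858.result A hsolvQ hchief χ hχ
  exact Cfsg.Agent.S0859.result A
    (fun q _ P a _ b _ => Subtype.ext (hab a a.2 b b.2)) hrel χ hχ

end Cfsg.Agent.Lib.Helper85.TC3MONOP
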